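import Mathlib
import Cfsg.Agent.Lib.Helper4.SmallSimple
import Cfsg.Agent.Lib.Helper17.Basic
import Cfsg.Agent.Lib.Helper74.O720.Defs

/-! helper54 for helper74 (farm O720, row S0496): piece T2, `n_3 ∈ {10, 40}`. -/

set_option autoImplicit false

namespace Cfsg.Agent.Lib.Helper74.O720

open Subgroup Cfsg.Agent.Lib.Helper17

/-- fixed points modulo `p` on an invariant set -/
theorem T2_card_modEq_fixed {α : Type*} [Fintype α] [DecidableEq α] (g : Equiv.Perm α) (p : ℕ)
    [Fact p.Prime] (hg : g ^ p = 1) (s : Finset α) (hs : ∀ x ∈ s, g x ∈ s) :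
    s.card ≡ (s.filter fun x => g x = x).card [MOD p] := by
  let g' : Equiv.Perm {x // x ∈ s} := g.subtypePermOfFintype hs
  have hg' : g' ^ p ^ 1 = 1 := by
    rw [pow_one]
    ext1 x
    apply Subtype.ext
    have : ∀ n : ℕ, (((g' ^ n) x : {x // x ∈ s}) : α) = (g ^ n) x := by
      intro n
      induction n with
      | zero => rfl
      | succ n ih =>
        rw [pow_succ', pow_succ', Equiv.Perm.mul_apply, Equiv.Perm.mul_apply, ← ih]
        rfl
    rw [this, hg]; rfl
  have h1 := Equiv.Perm.card_compl_support_modEq hg'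
  rw [Fintype.card_coe] at h1
  refine h1.symm.trans ?_
  have : (g'.supportᶜ).card = (s.filter fun x => g x = x).card := by
    apply Finset.card_bij (fun (x : {x // x ∈ s}) _ => (x : α))
    · intro x hx
      rw [Finset.mem_compl, Equiv.Perm.mem_support, not_not] at hx
      rw [Finset.mem_filter]
      exact ⟨x.2, congrArg Subtype.val hx⟩
    · intro a _ b _ h
      exact Subtype.ext h
    · intro b hb
      rw [Finset.mem_filter] at hb
      refine ⟨⟨b, hb.1⟩, ?_, rfl⟩
      rw [Finset.mem_compl, Equiv.Perm.mem_support, not_not]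
      exact Subtype.ext hb.2
  rw [this]

variable {G : Type*} [Group G] [Finite G] [IsSimpleGroup G]

theorem n3 (h : Nat.card G = 720) : Nat.card (Sylow 3 G) = 10 ∨ Nat.card (Sylow 3 G) = 40 := by
  classical
  have : Fact (Nat.Prime 3) := ⟨by norm_num⟩
  have : Fact (Nat.Prime 5) := ⟨by norm_num⟩
  have := Fintype.ofFinite G
  have h3 : Nat.card G = 3 ^ 2 * 80 := by rw [h]; norm_num
  obtain ⟨hd, hm⟩ := card_sylow_mem (G := G) h3 (by norm_num)
  have hn1 : Nat.card (Sylow 3 G) ≠ 1 :=
    card_sylow_ne_one h3 (by norm_num) (by norm_num) (by norm_num)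
  have key : ∀ d ∈ Nat.divisors 80, d % 3 = 1 → d = 1 ∨ d = 4 ∨ d = 10 ∨ d = 16 ∨ d = 40 := by
    decide +kernel
  obtain ⟨P⟩ : Nonempty (Sylow 3 G) := inferInstance
  have hP9 : Nat.card ↥(P : Subgroup G) = 3 ^ 2 := (sylow_card_index P h3 (by norm_num)).1
  rcases key _ (Nat.mem_divisors.2 ⟨hd, by norm_num⟩) hm with h1 | h1 | h1 | h1 | h1
  · exact absurd h1 hn1
  · exfalso
    have hidx : (normalizer ((P : Subgroup G) : Set G)).index = Nat.card (Sylow 3 G) :=
      P.card_eq_index_normalizer.symm
    have hNtop : normalizer ((P : Subgroup G) : Set G) ≠ ⊤ := by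
      intro ht
      rw [ht, Subgroup.index_top] at hidx
      exact hn1 hidx.symm
    have hfac := card_dvd_factorial_index _ hNtop
    rw [hidx, h, h1] at hfac
    revert hfac
    decide
  · exact Or.inl h1
  · exfalso
    have hN := card_sylow_mul_card_normalizer P
    rw [h1, h] at hN
    have hN45 : Nat.card ↥(normalizer ((P : Subgroup G) : Set G)) = 45 := by omega
    have hPc : IsMulCommutative ↥(P : Subgroup G) :=
      IsPGroup.isMulCommutative_of_card_eq_prime_sq hP9
    have hPC : (P : Subgroup G) ≤ centralizer ((P : Subgroup G) : Set G) := Subgroup.le_centralizer _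
    obtain ⟨y0, hy0⟩ := exists_prime_orderOf_dvd_card'
      (G := ↥(normalizer ((P : Subgroup G) : Set G))) 5 (by rw [hN45]; norm_num)
    set y : G := (y0 : G) with hy
    have hyo : orderOf y = 5 := by rw [hy, Subgroup.orderOf_coe, hy0]
    have hyN : y ∈ normalizer ((P : Subgroup G) : Set G) := y0.2
    -- fixed points of y on P
    have hmod := T2_card_modEq_fixed (MulAut.conj y).toEquiv 5
      (by
        have hy5 : y ^ 5 = 1 := by
          have := pow_orderOf_eq_one y
          rwa [hyo] at this
        ext x
        have : ∀ n : ℕ, (((MulAut.conj y).toEquiv : Equiv.Perm G) ^ n) x = y ^ n * x * (y ^ n)⁻¹ := by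
          intro n
          induction n with
          | zero => simp
          | succ n ih =>
            rw [pow_succ', Equiv.Perm.mul_apply, ih]
            simp only [MulEquiv.toEquiv_eq_coe, EquivLike.coe_coe, MulAut.conj_apply]
            rw [pow_succ']
            group
        rw [this, hy5]; simp)
      (Finset.univ.filter fun x : G => x ∈ (P : Subgroup G)) (by
        intro x hx
        rw [Finset.mem_filter] at hx ⊢
        refine ⟨Finset.mem_univ _, ?_⟩
        exact (Subgroup.mem_normalizer_iff.1 hyN x).1 hx.2)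
    have hc1 : (Finset.univ.filter fun x : G => x ∈ (P : Subgroup G)).card = 9 := by
      rw [← Fintype.card_subtype, ← Nat.card_eq_fintype_card]
      exact hP9
    have hc2 : ((Finset.univ.filter fun x : G => x ∈ (P : Subgroup G)).filter
        fun x => (MulAut.conj y).toEquiv x = x).card
        = Nat.card ↥((P : Subgroup G) ⊓ centralizer ({y} : Set G)) := by
      rw [Finset.filter_filter, ← Fintype.card_subtype, ← Nat.card_eq_fintype_card]
      apply Nat.card_congr
      apply Equiv.subtypeEquivRight
      intro x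
      rw [Subgroup.mem_inf, Subgroup.mem_centralizer_singleton_iff]
      simp only [MulEquiv.toEquiv_eq_coe, EquivLike.coe_coe, MulAut.conj_apply]
      rw [mul_inv_eq_iff_eq_mul]
      exact and_congr_right fun _ => eq_comm
    rw [hc1, hc2] at hmod
    have hdv : Nat.card ↥((P : Subgroup G) ⊓ centralizer ({y} : Set G)) ∣ 9 := by
      have := Subgroup.card_dvd_of_le (inf_le_left :
        (P : Subgroup G) ⊓ centralizer ({y} : Set G) ≤ (P : Subgroup G))
      rwa [hP9] at this
    have h9 : Nat.card ↥((P : Subgroup G) ⊓ centralizer ({y} : Set G)) = 9 := by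
      have key2 : ∀ d ∈ Nat.divisors 9, 9 % 5 = d % 5 → d = 9 := by decide +kernel
      exact key2 _ (Nat.mem_divisors.2 ⟨hdv, by norm_num⟩) hmod
    have hPy : (P : Subgroup G) ≤ centralizer ({y} : Set G) := by
      have : (P : Subgroup G) ⊓ centralizer ({y} : Set G) = (P : Subgroup G) :=
        Subgroup.eq_of_le_of_card_ge inf_le_left (by rw [h9, hP9]; norm_num)
      rw [← this]; exact inf_le_right
    have hyC : y ∈ centralizer ((P : Subgroup G) : Set G) := by
      rw [Subgroup.mem_centralizer_iff]
      intro x hx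
      exact Subgroup.mem_centralizer_singleton_iff.1 (hPy hx)
    -- C ⊓ N has order 45
    have hdC9 : 9 ∣ Nat.card ↥(centralizer ((P : Subgroup G) : Set G) ⊓
        normalizer ((P : Subgroup G) : Set G)) := by
      have := Subgroup.card_dvd_of_le (le_inf hPC le_normalizer :
        (P : Subgroup G) ≤ centralizer ((P : Subgroup G) : Set G) ⊓
          normalizer ((P : Subgroup G) : Set G))
      rwa [hP9] at this
    have hdC5 : 5 ∣ Nat.card ↥(centralizer ((P : Subgroup G) : Set G) ⊓
        normalizer ((P : Subgroup G) : Set G)) := by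
      have hmem : y ∈ centralizer ((P : Subgroup G) : Set G) ⊓
        normalizer ((P : Subgroup G) : Set G) := ⟨hyC, hyN⟩
      have := orderOf_dvd_natCard (⟨y, hmem⟩ : ↥(centralizer ((P : Subgroup G) : Set G) ⊓
        normalizer ((P : Subgroup G) : Set G)))
      rwa [Subgroup.orderOf_mk, hyo] at this
    have h45 : 45 ∣ Nat.card ↥(centralizer ((P : Subgroup G) : Set G) ⊓
        normalizer ((P : Subgroup G) : Set G)) := by omega
    have hNC : normalizer ((P : Subgroup G) : Set G) ≤ centralizer ((P : Subgroup G) : Set G) := by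
      have : centralizer ((P : Subgroup G) : Set G) ⊓ normalizer ((P : Subgroup G) : Set G)
          = normalizer ((P : Subgroup G) : Set G) :=
        Subgroup.eq_of_le_of_card_ge inf_le_right
          (by rw [hN45]; exact Nat.le_of_dvd Nat.card_pos h45)
      rw [← this]; exact inf_le_left
    exact not_normalizer_le_centralizer P (by rw [hP9]; norm_num) (by rw [hP9, h]; norm_num) hNC
  · exact Or.inr h1

end Cfsg.Agent.Lib.Helper74.O720
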